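import Cfsg.Agent.H531.GU.Neck
import Cfsg.Agent.H521.GU.Compl
import Cfsg.Agent.H614.GLn.RSLab
import Cfsg.Agent.H614.GLn.IrrLab

/-!
# The label of the trivial character (S4791, S4927)

* `Sch_row` : the Schur function of a row is the complete homogeneous element;
* `evR_row` : `evR (Sch 0 (row n)) lam = 1` for `tdeg lam = n`.
-/

set_option autoImplicit false

open Cfsg Cfsg.Agent.H615.GU Cfsg.Agent.H577.GLB.Std

namespace Cfsg.Agent.H421.XZ

/-! ### the Schur function of a row -/

section Row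

open Cfsg.Agent.H614 Cfsg.Agent.H614.GLn Cfsg.Agent.H614.GLn.RSt

variable {A : Type*} [CommRing A] [Algebra ℂ A] {m : ℕ}

theorem row_sum (hm : 0 < m) (n : ℕ) :
    ∑ i : Fin m, (i.1 + if i.1 + 1 = m then n else 0) = n + ∑ i : Fin m, (i : ℕ) := by
  obtain ⟨m, rfl⟩ : ∃ k, m = k + 1 := ⟨m - 1, by omega⟩
  rw [Finset.sum_add_distrib, add_comm]
  congr 1
  rw [Finset.sum_eq_single (Fin.last m)]
  · rw [if_pos (by simp)]
  · intro i _ hi
    rw [if_neg]
    intro h
    exact hi (Fin.ext (by rw [Fin.val_last]; omega))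
  · intro h
    exact absurd (Finset.mem_univ _) h

/-- the Jacobi-Trudi determinant of a row -/
theorem JT_row (P : ℕ → A) (hm : 0 < m) (n : ℕ) :
    JT P (fun i : Fin m => i.1 + if i.1 + 1 = m then n else 0) = hh P n := by
  classical
  rw [JT, Finset.sum_eq_single 1]
  · obtain ⟨m, rfl⟩ : ∃ k, m = k + 1 := ⟨m - 1, by omega⟩
    have h1 : ∀ i : Fin (m + 1), jt P (i.1 + if i.1 + 1 = m + 1 then n else 0) ((1 : Equiv.Perm (Fin (m + 1))) i : ℕ) =
        if i = Fin.last m then hh P n else 1 := by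
      intro i
      rw [Equiv.Perm.one_apply, jt, if_pos (Nat.le_add_right _ _), Nat.add_sub_cancel_left]
      by_cases hi : i = Fin.last m
      · rw [if_pos hi, if_pos (by rw [hi, Fin.val_last])]
      · rw [if_neg hi, if_neg, hh_zero]
        intro h
        exact hi (Fin.ext (by rw [Fin.val_last]; omega))
    rw [Finset.prod_congr rfl fun i _ => h1 i, Finset.prod_ite_eq' Finset.univ (Fin.last m) (fun _ => hh P n),
      if_pos (Finset.mem_univ _)]
    simp [sg]
  · intro σ _ hσ
    -- the smallest moved point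
    have h1 : ∃ i, (σ i : ℕ) ≠ i := by
      by_contra h
      push Not at h
      exact hσ (Equiv.ext fun i => Fin.ext (h i))
    obtain ⟨i, hi, hmin⟩ : ∃ i : Fin m, (σ i : ℕ) ≠ i ∧ ∀ j : Fin m, j < i → (σ j : ℕ) = j := by
      obtain ⟨i, hi, hmin⟩ := WellFounded.has_min (wellFounded_lt (α := Fin m)) {i | (σ i : ℕ) ≠ i} h1
      refine ⟨i, hi, fun j hj => ?_⟩
      by_contra h
      exact hmin j h hj
    have h2 : (i : ℕ) < σ i := by
      rcases Nat.lt_or_gt_of_ne hi with h | h
      · exfalso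
        have h3 := hmin (σ i) h
        have h4 : σ (σ i) = σ i := Fin.ext h3
        have h5 := σ.injective h4
        exact hi (by rw [h5])
      · exact h
    rw [Finset.prod_eq_zero (Finset.mem_univ i), smul_zero]
    rw [jt, if_neg]
    have h3 := (σ i).2
    rw [if_neg (by omega)]
    omega
  · intro h
    exact absurd (Finset.mem_univ _) h

variable {Q : ℤ} {M : ℕ}

/-- the Schur function of a row is a complete homogeneous element -/
theorem Sch_row (c : ZMod M) (hm : 0 < m) (n : ℕ) :
    Sch Q M c (fun i : Fin m => i.1 + if i.1 + 1 = m then n else 0) =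
      H421.GLn.newt (fun j => Pw Q M j c) n := by
  rw [Sch_eq_SS, row_sum hm, Nat.add_sub_cancel, SS_eq_JT _ n (row_sum hm n), JT_row _ hm, hh_eq_newt]

theorem perZ_zero : perZ Q M 0 = 1 := by
  rw [perZ]
  refine Function.minimalPeriod_eq_one_iff_isFixedPt.2 ?_
  show (Q : ZMod M) * 0 = 0
  exact mul_zero _

/-- the exterior powers of degree `0` of the trivial label are the complete homogeneous elements -/
theorem newt_Pw_zero (n : ℕ) : H421.GLn.newt (fun j => Pw Q M j 0) n = H421.GLn.En Q M n 0 0 := by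
  refine (H421.GLn.newt_unique (N := n) (h := fun n => H421.GLn.En Q M n 0 0) ?_ (fun k _ => ?_) n le_rfl).symm
  · simp only [H421.GLn.En_zero, if_true]
  · have h := H421.GLn.En_rec (Q := Q) (M := M) k 0 0
    rw [h]
    refine Finset.sum_congr rfl fun i _ => ?_
    rw [Finset.Nat.antidiagonal_zero, Finset.sum_singleton, Finset.powersetCard_zero, Finset.sum_singleton, Pw,
      perZ_zero, mul_one, H421.GLn.Prs, Finset.sum_empty, mul_zero, zero_mul, Int.cast_zero]

end Row

section Main

open H531.GU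

variable {K : Type*} [Field K] {θ : K →*₀ ℂ} {Q : ℤ} {M N : ℕ}

/-- the necklace operator of degree `0` on the vacuum -/
theorem Eop_vac {I : Type*} (d : I → ℕ) (Q : ℤ) {g : I → Polynomial ℂ} (hg : ∀ i, (g i).coeff 0 = 1) {n : ℕ}
    {lam : Ty I} (h : tdeg d lam = n) : Eop d Q g n 0 vac lam = 1 := by
  classical
  rw [Eop, UF_apply, Finset.sum_eq_single 0]
  · have h1 : Ng d Q lam 0 = 1 := by
      rw [Ng, Finsupp.support_zero, Finset.prod_empty]
    have h2 : sz (0 : Ty I) = 0 := by
      rw [sz, Finsupp.mapRange_zero]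
    rw [h1, h2, tsub_zero, vdeg_sz, if_pos h, Wt_coeff_zero g hg, vac, if_pos rfl]
    norm_num
  · intro k _ hk
    rw [vac, if_neg hk, mul_zero]
  · intro h0
    exfalso
    apply h0
    rw [mem_tbelow]
    intro i
    exact fun j => Nat.zero_le _

/-- **The label of the trivial character.** -/
theorem evR_row (ctx : CtxQ θ Q M N) {m n : ℕ} (hn : n ≤ N) (hm : 0 < m) (lam : Ty (Orb K Q))
    (h : tdeg (dOrb K Q) lam = n) :
    evR θ Q M (Sch Q M 0 (fun i : Fin m => i.1 + if i.1 + 1 = m then n else 0)) lam = 1 := by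
  have := ctx.finK
  have := CtxQ.neM ctx
  rw [Sch_row 0 hm, newt_Pw_zero, ← mul_one (H421.GLn.En Q M n 0 0),
    evR_En θ H521.GU.i2s ctx.card ctx.unit ctx.dvd 0 1 n hn 0, evR_one]
  exact Eop_vac _ _ (gx_coeff_zero θ 0) h

end Main

end Cfsg.Agent.H421.XZ
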